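import Cfsg.Agent.H87.M22.Orth
import Mathlib.LinearAlgebra.QuadraticForm.Prod

/-!
Six-dimensional forms of discriminant one over the field with three elements are multiples of the sum of
squares, and the chain of six vectors of one norm in them.
-/

set_option autoImplicit false

namespace Cfsg.Agent.H25.M22O7

open QuadraticMap Module
open Cfsg.Agent.H87.M22 (K3)

/-- The dot product. -/
def dot6 (y z : Fin 6 → K3) : K3 := ∑ i, y i * z i

/-- Rotating the coordinates of the wrong norm in pairs. -/
def pairRow (b : Fin 6 → Bool) (i j : Fin 6) : K3 :=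
  if b i = false then (if j = i then 1 else 0)
  else
    let bad := (List.finRange 6).filter b
    let k := bad.idxOf i
    if j = i then (if k % 2 = 0 then 1 else -1)
    else if j = bad.getD (if k % 2 = 0 then k + 1 else k - 1) i then 1 else 0

/-- The weights of a pattern. -/
def patWt (c : K3) (b : Fin 6 → Bool) (i : Fin 6) : K3 := if b i then -c else c

theorem pairRow_spec : ∀ b : Fin 6 → Bool, (∏ i, patWt 1 b i) = 1 → ∀ i i' : Fin 6,
    (∑ j, patWt 1 b j * pairRow b i j * pairRow b i' j) = if i = i' then 1 else 0 := by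
  decide +kernel

theorem patWt_smul (c : K3) (b : Fin 6 → Bool) (i : Fin 6) : patWt c b i = c * patWt 1 b i := by
  unfold patWt; split <;> simp

theorem k3_sq : ∀ {c : K3}, c ≠ 0 → c * c = 1 := by decide +kernel

theorem k3_ne_neg : ∀ {c : K3}, c ≠ 0 → -c ≠ c := by decide +kernel

theorem k3_sign : ∀ {c a : K3}, c ≠ 0 → a ≠ 0 → a = c ∨ a = -c := by decide +kernel

variable (Q : QuadraticForm K3 (Fin 6 → K3))

/-- A form of discriminant one is the sum of squares times any non-zero scalar. -/
theorem exists_coords (hQ : (polarBilin Q).Nondegenerate) (hμ : Cfsg.polarGramDet (⇑Q) = 1)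
    {c : K3} (hc : c ≠ 0) :
    ∃ e : (Fin 6 → K3) ≃ₗ[K3] (Fin 6 → K3), ∀ y, Q (e y) = c * dot6 y y := by
  classical
  haveI : Invertible (2 : K3) := invertibleOfNonzero (by decide)
  have hfin : finrank K3 (Fin 6 → K3) = 6 := Module.finrank_fin_fun K3
  have hsep : (QuadraticMap.associated (R := K3) (N := K3) Q).SeparatingLeft := fun x hx => hQ.1 x fun y => by
    rw [← QuadraticMap.two_nsmul_associated (S := K3) Q]
    show (2 : ℕ) • QuadraticMap.associated (R := K3) Q x y = 0
    rw [hx y, smul_zero]
  obtain ⟨w, ⟨f⟩⟩ := QuadraticForm.equivalent_weightedSumSquares_units_of_nondegenerate' Q hsep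
  obtain ⟨σ, hσ⟩ : ∃ σ : Fin 6 ≃ Fin (finrank K3 (Fin 6 → K3)), True := ⟨finCongr hfin.symm, trivial⟩
  let a : Fin 6 → K3 := fun i => (w (σ i) : K3)
  let g : (Fin 6 → K3) ≃ₗ[K3] (Fin 6 → K3) :=
    (LinearEquiv.funCongrLeft K3 K3 σ.symm).trans f.toLinearEquiv.symm
  have hg : ∀ y, Q (g y) = ∑ i, a i * (y i * y i) := by
    intro y
    have h1 : Q (g y) = QuadraticMap.weightedSumSquares K3 w (LinearEquiv.funCongrLeft K3 K3 σ.symm y) := by
      rw [← f.map_app]
      simp [g]
    rw [h1, QuadraticMap.weightedSumSquares_apply, ← σ.sum_comp]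
    simp [a, Units.smul_def, LinearEquiv.funCongrLeft_apply, LinearMap.funLeft_apply]
  -- the discriminant makes the product of the weights one
  have hprod : ∏ i, a i = 1 := by
    let P : Matrix (Fin 6) (Fin 6) K3 := LinearMap.toMatrix' (g.symm : (Fin 6 → K3) →ₗ[K3] (Fin 6 → K3))
    have hgram : (Matrix.of fun i j : Fin 6 => polar Q (Pi.single i 1) (Pi.single j 1)) =
        P.transpose * Matrix.diagonal (fun i => 2 * a i) * P := by
      ext i j
      have hpol : ∀ y z, polar Q (g y) (g z) = ∑ k, 2 * a k * (y k * z k) := by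
        intro y z
        rw [QuadraticMap.polar, ← map_add, hg, hg, hg, ← Finset.sum_sub_distrib, ← Finset.sum_sub_distrib]
        exact Finset.sum_congr rfl fun k _ => by simp only [Pi.add_apply]; ring
      rw [Matrix.of_apply, ← g.apply_symm_apply (Pi.single i 1), ← g.apply_symm_apply (Pi.single j 1), hpol,
        Matrix.mul_apply]
      refine Finset.sum_congr rfl fun k _ => ?_
      rw [Matrix.mul_diagonal, Matrix.transpose_apply]
      simp only [P, LinearMap.toMatrix'_apply, LinearEquiv.coe_coe, g.apply_symm_apply]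
      ring
    have h := hμ
    rw [Cfsg.polarGramDet, hgram, Matrix.det_mul, Matrix.det_mul, Matrix.det_transpose, Matrix.det_diagonal,
      Finset.prod_mul_distrib, Finset.prod_const, Finset.card_univ, Fintype.card_fin] at h
    have h0 : P.det ≠ 0 := fun h0 => by simp [h0] at h
    calc ∏ i, a i = (2 : K3) ^ 6 * (P.det * P.det) * ∏ i, a i := by
            rw [k3_sq h0, show (2 : K3) ^ 6 = 1 from rfl, one_mul, one_mul]
      _ = 1 := by linear_combination h
  let b : Fin 6 → Bool := fun i => decide (a i ≠ c)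
  have ha : ∀ i, a i = patWt c b i := fun i => by
    rcases k3_sign hc (w (σ i)).ne_zero with h | h
    · simp only [patWt, b, a, h, ne_eq, not_true_eq_false, decide_false, Bool.false_eq_true, if_false]
    · have hne : -c ≠ c := k3_ne_neg hc
      simp only [patWt, b, a, h, ne_eq, hne, not_false_eq_true, decide_true, if_true]
  have hb : ∏ i, patWt 1 b i = 1 := by
    have h : ∏ i, a i = c ^ 6 * ∏ i, patWt 1 b i := by
      simp only [ha, patWt_smul c b, Finset.prod_mul_distrib, Finset.prod_const, Finset.card_univ, Fintype.card_fin]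
    rw [hprod, show c ^ 6 = (c * c) ^ 3 by ring, k3_sq hc, one_pow, one_mul] at h
    exact h.symm
  let L : (Fin 6 → K3) →ₗ[K3] (Fin 6 → K3) :=
    { toFun := fun y j => ∑ i, y i * pairRow b i j
      map_add' := fun y z => funext fun j => by simp [add_mul, Finset.sum_add_distrib]
      map_smul' := fun r y => funext fun j => by simp [mul_assoc, Finset.mul_sum] }
  have hL : ∀ y z, ∑ j, patWt 1 b j * (L y j * L z j) = dot6 y z := by
    intro y z
    have hs := pairRow_spec b hb
    calc ∑ j, patWt 1 b j * (L y j * L z j)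
        = ∑ i, ∑ i', y i * z i' * ∑ j, patWt 1 b j * pairRow b i j * pairRow b i' j := by
          simp only [L, LinearMap.coe_mk, AddHom.coe_mk, Finset.mul_sum, Finset.sum_mul]
          rw [Finset.sum_comm]
          refine (Finset.sum_congr rfl fun i _ => Finset.sum_comm).trans ?_
          rw [Finset.sum_comm]
          exact Finset.sum_congr rfl fun i _ => Finset.sum_congr rfl fun i' _ => Finset.sum_congr rfl fun j _ => by ring
      _ = dot6 y z := by simp [hs, dot6]
  have hinj : Function.Injective L := (injective_iff_map_eq_zero L).2 fun y hy => funext fun k => by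
    have := hL y (Pi.single k 1)
    simpa [hy, dot6, Pi.single_apply] using this.symm
  refine ⟨(LinearEquiv.ofInjectiveEndo L hinj).trans g, fun y => ?_⟩
  rw [LinearEquiv.trans_apply, LinearEquiv.coe_ofInjectiveEndo, hg, ← hL, Finset.mul_sum]
  exact Finset.sum_congr rfl fun j _ => by rw [ha, patWt_smul c b j]; ring

/-- The vectors of the chain `b, c, d, e, f, g`. -/
def chainV : Fin 6 → Fin 6 → K3 :=
  ![![1, 0, 0, 0, 0, 0], ![1, 0, 0, 1, 1, 1], ![0, 0, 0, 0, 0, 1], ![0, 0, 1, 1, 1, 1],
    ![0, 1, 1, 1, 2, 0], ![0, 1, 0, 0, 0, 0]]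

/-- Neighbours in the chain. -/
def chainAdj (i j : Fin 6) : Bool := decide ((i : ℕ) + 1 = j ∨ (j : ℕ) + 1 = i)

theorem chainV_spec : ∀ i j, dot6 (chainV i) (chainV i) = 1 ∧
    (i ≠ j → (dot6 (chainV i) (chainV j) = 0 ↔ chainAdj i j = false)) := by
  decide +kernel

/-- No vector completes the chain to a diagram of type `E₇`. -/
theorem no_spider_leg : ∀ y : Fin 6 → K3, dot6 y y = 1 → dot6 (chainV 0) y = 0 → dot6 (chainV 1) y = 0 →
    dot6 (chainV 3) y = 0 → dot6 (chainV 4) y = 0 → dot6 (chainV 5) y = 0 → dot6 (chainV 2) y = 0 := by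
  decide +kernel

/-- No vector completes the chain to a diagram of type `A₇`. -/
theorem no_chain_end : ∀ y : Fin 6 → K3, dot6 y y = 1 → dot6 (chainV 0) y = 0 → dot6 (chainV 1) y = 0 →
    dot6 (chainV 2) y = 0 → dot6 (chainV 3) y = 0 → dot6 (chainV 4) y = 0 → dot6 (chainV 5) y = 0 := by
  decide +kernel

end Cfsg.Agent.H25.M22O7
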