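import Cfsg.Agent.H87.M22.Config

/-!
The reflection model of `Cfsg.Agent.H87.M22.Config`, recording also the Gram determinant of the form.
-/

set_option autoImplicit false

namespace Cfsg.Agent.H25.M22O7

open QuadraticMap hiding proj
open Module
open Cfsg.Agent.H87.M22

/-- A projective reflection group embeds in the orthogonal group up to sign. -/
theorem exists_emb_det {L : Type*} [Group L] {μ c : K3} (hc : c ≠ 0)
    (hX : Cfsg.IsProjReflectionGroupModThree (L ⧸ Subgroup.center L) 6 μ c) :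
    ∃ (Q : QuadraticForm K3 (Fin 6 → K3)) (Φ : L →* H5.orth Q ⧸ pmGroup Q) (K : Subgroup (H5.orth Q)),
      (polarBilin Q).Nondegenerate ∧ Cfsg.polarGramDet (⇑Q) = μ ∧ K.index = 2 ∧ (∀ v, Q v = c → H5.refl Q v ∈ K) ∧
      Φ.ker = Subgroup.center L ∧ (∀ k ∈ K, ∃ a, Φ a = proj k) ∧
      ∀ a, ∃ k ∈ K, Φ a = proj k := by
  obtain ⟨Q, hQ, hμ, ⟨e₁⟩⟩ := hX
  obtain ⟨e, he⟩ : ∃ e, e = H5.isoEquiv Q (f := ⇑Q) rfl := ⟨_, rfl⟩
  let R := Cfsg.reflectionSubgroup (⇑Q) c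
  let ψ₀ : R →* H5.orth Q ⧸ pmGroup Q :=
    (QuotientGroup.mk' (pmGroup Q)).comp (e.toMonoidHom.comp R.subtype)
  have hval : ∀ r : R, ψ₀ r = proj (e r.1) := fun r => rfl
  have hmem : ∀ v, Q v = c → e.symm (H5.refl Q v) ∈ R := fun v hv =>
    Subgroup.subset_closure ⟨v, hv,
      (H5.isoEquiv_eq_refl_iff Q rfl _ v).2 (he ▸ e.apply_symm_apply _)⟩
  have hker : ψ₀.ker = Subgroup.center R := by
    ext r
    rw [MonoidHom.mem_ker, hval, QuotientGroup.eq_one_iff, mem_pmGroup, Subgroup.mem_center_iff]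
    constructor
    · intro h s
      refine Subtype.ext (e.injective ?_)
      rw [Subgroup.coe_mul, Subgroup.coe_mul, map_mul, map_mul]
      exact (pm_comm h _).eq.symm
    · intro h
      refine scalar_of_comm Q hQ hc _ fun v hv => ?_
      have h1 := congrArg (fun x : R => e x.1) (h ⟨_, hmem v hv⟩)
      simp only [Subgroup.coe_mul, map_mul, MulEquiv.apply_symm_apply] at h1
      exact h1.symm
  let ψ : R ⧸ Subgroup.center R →* H5.orth Q ⧸ pmGroup Q :=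
    QuotientGroup.lift _ ψ₀ hker.ge
  have hψ : Function.Injective ψ := by
    rw [← MonoidHom.ker_eq_bot_iff, eq_bot_iff]
    intro q hq
    obtain ⟨r, rfl⟩ := QuotientGroup.mk_surjective q
    have h1 : ψ₀ r = 1 := hq
    exact (QuotientGroup.eq_one_iff r).2 (hker ▸ MonoidHom.mem_ker.2 h1)
  refine ⟨Q, ψ.comp (e₁.toMonoidHom.comp (QuotientGroup.mk' _)), R.map e.toMonoidHom, hQ, hμ, ?_,
    fun v hv => ⟨_, hmem v hv, e.apply_symm_apply _⟩, ?_, ?_, ?_⟩
  · rw [Subgroup.index_map_of_bijective (f := e.toMonoidHom) (MulEquiv.bijective _)]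
    exact H17.Transv.reflectionSubgroup_index Q hQ hc (by norm_num)
  · ext a
    rw [MonoidHom.mem_ker, ← QuotientGroup.eq_one_iff]
    show ψ (e₁ (a : L ⧸ Subgroup.center L)) = 1 ↔ _
    constructor
    · intro h
      exact e₁.injective ((hψ (h.trans (map_one ψ).symm)).trans (map_one e₁).symm)
    · intro h; rw [h, map_one, map_one]
  · rintro _ ⟨r, hr, rfl⟩
    obtain ⟨a, ha⟩ := QuotientGroup.mk_surjective (e₁.symm ((⟨r, hr⟩ : R) : R ⧸ Subgroup.center R))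
    refine ⟨a, ?_⟩
    show ψ (e₁ (a : L ⧸ Subgroup.center L)) = _
    rw [ha, MulEquiv.apply_symm_apply]
    rfl
  · intro a
    obtain ⟨r, hr⟩ := QuotientGroup.mk_surjective (e₁ (a : L ⧸ Subgroup.center L))
    refine ⟨e r.1, ⟨r.1, r.2, rfl⟩, ?_⟩
    show ψ (e₁ (a : L ⧸ Subgroup.center L)) = _
    rw [← hr]
    rfl

/-- The transpositions as vectors of one norm. -/
theorem exists_model_det {L : Type*} [Group L] {Y : Set L} (hY : Cfsg.IsThreeTranspositionGroup Y)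
    {μ c : K3} (hc : c ≠ 0)
    (hX : Cfsg.IsProjReflectionGroupModThree (L ⧸ Subgroup.center L) 6 μ c) :
    ∃ (Q : QuadraticForm K3 (Fin 6 → K3)) (c' : K3) (P : L → (Fin 6 → K3) → Prop),
      (polarBilin Q).Nondegenerate ∧ Cfsg.polarGramDet (⇑Q) = μ ∧ c' ≠ 0 ∧ (∀ a u, P a u → a ∈ Y ∧ Q u = c') ∧
      (∀ a u, P a u → P a (-u)) ∧ (∀ a b u, P a u → P b u → a = b) ∧
      (∀ a u w, P a u → P a w → w = u ∨ w = -u) ∧
      (∀ u, Q u = c' → ∃ a, P a u) ∧ (∀ a ∈ Y, ∀ b ∈ Y, ¬ Commute a b → ∃ u, P a u) ∧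
      (∀ a b u w, P a u → P b w → (Commute a b ↔ polar Q u w = 0 ∨ a = b)) ∧
      ∀ a b u w, P a u → P b w → P (a * b * a) (ap (H5.refl Q u) w) := by
  obtain ⟨Q, Φ, K, hQ, hμ, hidx, hKc, hker, hsurj, hval⟩ := exists_emb_det hc hX
  haveI : K.Normal := Subgroup.normal_of_index_eq_two hidx
  have h20 : (2 : K3) ≠ 0 := by decide
  have hd6 : finrank K3 (Fin 6 → K3) = 6 := Module.finrank_fin_fun K3
  have h36 : 3 ≤ finrank K3 (Fin 6 → K3) := by omega
  have hpm : ∀ g : H5.orth Q, proj g = 1 ↔ IsPM g := fun g => QuotientGroup.eq_one_iff g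
  have hΦ1 : ∀ a, Φ a = 1 ↔ a ∈ Subgroup.center L := fun a => by
    rw [← MonoidHom.mem_ker, hker]
  -- one member has determinant minus one
  obtain ⟨a₀, ha₀, g₀, hg₀, hdet⟩ : ∃ a ∈ Y, ∃ g, Φ a = proj g ∧
      LinearMap.det ((g : (Fin 6 → K3) ≃ₗ[K3] (Fin 6 → K3)) :
        (Fin 6 → K3) →ₗ[K3] (Fin 6 → K3)) = -1 := by
    by_contra hne
    push Not at hne
    let δ₀ : H5.orth Q →* K3ˣ :=
      (LinearEquiv.det : ((Fin 6 → K3) ≃ₗ[K3] (Fin 6 → K3)) →* K3ˣ).comp (H5.orth Q).subtype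
    let δ : H5.orth Q ⧸ pmGroup Q →* K3ˣ := QuotientGroup.lift _ δ₀ fun g hg => by
      refine MonoidHom.mem_ker.2 (Units.ext ?_)
      show ((LinearEquiv.det (g : (Fin 6 → K3) ≃ₗ[K3] (Fin 6 → K3)) : K3ˣ) : K3) = 1
      rw [LinearEquiv.coe_det]
      exact det_pm hd6 hg
    have hle : (⊤ : Subgroup L) ≤ (δ.comp Φ).ker := by
      rw [← hY.2.2, Subgroup.closure_le]
      intro a ha
      obtain ⟨g, -, hg⟩ := hval a
      rw [SetLike.mem_coe, MonoidHom.mem_ker, MonoidHom.comp_apply, hg]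
      refine Units.ext ?_
      show ((LinearEquiv.det (g : (Fin 6 → K3) ≃ₗ[K3] (Fin 6 → K3)) : K3ˣ) : K3) = 1
      have h1 := hne a ha g hg
      rw [← LinearEquiv.coe_det] at h1
      generalize LinearEquiv.det (g : (Fin 6 → K3) ≃ₗ[K3] (Fin 6 → K3)) = d at h1
      revert h1
      revert d
      decide
    obtain ⟨u, -, hu⟩ := H4.exists_value hQ (by omega) hc
    obtain ⟨a, ha⟩ := hsurj _ (hKc u hu)
    have h1 : δ (Φ a) = 1 := MonoidHom.mem_ker.1 (hle (Subgroup.mem_top a))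
    rw [ha] at h1
    replace h1 : LinearEquiv.det (H5.refl Q u : (Fin 6 → K3) ≃ₗ[K3] (Fin 6 → K3)) = 1 := h1
    rw [H5.det_refl (hu ▸ hc)] at h1
    exact absurd h1 (by decide)
  obtain ⟨v₀, hv₀, hrefl⟩ := refl_of_class K hQ hidx hd6 hdet
    ((hpm _).1 (show proj g₀ * proj g₀ = 1 by rw [← hg₀, ← map_mul, H17.sq_one hY.1 ha₀, map_one]))
    (fun h hh => by
      obtain ⟨b, hb⟩ := hsurj h hh
      rcases hY.1.2 a₀ ha₀ _ (hY.2.1 b a₀ ha₀) with h2 | h3
      · refine Or.inl ((hpm _).1 ?_)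
        show (proj g₀ * (proj h * proj g₀ * (proj h)⁻¹)) ^ 2 = 1
        rw [← hg₀, ← hb, ← map_inv, ← map_mul, ← map_mul, ← map_mul, ← map_pow, h2, map_one]
      · refine Or.inr ((hpm _).1 ?_)
        show (proj g₀ * (proj h * proj g₀ * (proj h)⁻¹)) ^ 3 = 1
        rw [← hg₀, ← hb, ← map_inv, ← map_mul, ← map_mul, ← map_mul, ← map_pow, h3, map_one])
  have hΦ0 : Φ a₀ = proj (H5.refl Q v₀) := by rw [hg₀, proj_eq]; exact hrefl
  have hneg : ∀ u, H5.refl Q (-u) = H5.refl Q u := fun u => by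
    rw [← neg_one_smul K3 u, H5.refl_smul (by decide)]
  have hconjr : ∀ (g : H5.orth Q) u,
      proj g * proj (H5.refl Q u) * (proj g)⁻¹ = proj (H5.refl Q (ap g u)) := fun g u => by
    rw [ap, ← H5.refl_conj]; rfl
  obtain ⟨P, hP⟩ : ∃ P : L → (Fin 6 → K3) → Prop, P = fun a u =>
      a ∈ Y ∧ a ∉ Subgroup.center L ∧ Q u = Q v₀ ∧ Φ a = proj (H5.refl Q u) := ⟨_, rfl⟩
  have hnc : ∀ a u, Q u = Q v₀ → Φ a = proj (H5.refl Q u) → a ∉ Subgroup.center L := by
    intro a u hu ha hZ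
    rw [← hΦ1, ha, hpm] at hZ
    have h1 := det_pm hd6 hZ
    rw [← LinearEquiv.coe_det, H5.det_refl (hu ▸ hv₀)] at h1
    exact absurd h1 (by decide)
  have hall : ∀ u, Q u = Q v₀ → ∃ a, P a u := by
    intro u hu
    obtain ⟨h, hh, hhu⟩ := refl_conj_mem K hQ hidx h36 hv₀ hu.symm
    obtain ⟨b, hb⟩ := hsurj h hh
    have he : Φ (b * a₀ * b⁻¹) = proj (H5.refl Q u) := by
      rw [map_mul, map_mul, map_inv, hb, hΦ0, hconjr]
      rcases hhu with h1 | h1
      · rw [h1]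
      · rw [h1, hneg]
    rw [hP]
    exact ⟨_, hY.2.1 b a₀ ha₀, hnc _ u hu he, hu, he⟩
  have hinj : ∀ a ∈ Y, ∀ b ∈ Y, a ∉ Subgroup.center L → Φ a = Φ b → a = b := by
    intro a ha b hb hca he
    refine H43.FischerTwins.mk_inj hY ha hb hca ?_
    rw [QuotientGroup.eq, ← hΦ1, map_mul, map_inv, he, inv_mul_cancel]
  refine ⟨Q, Q v₀, P, hQ, hμ, hv₀, ?_, ?_, ?_, ?_, hall, ?_, ?_, ?_⟩
  · intro a u h; rw [hP] at h; exact ⟨h.1, h.2.2.1⟩
  · intro a u h; rw [hP] at h ⊢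
    exact ⟨h.1, h.2.1, by rw [QuadraticMap.map_neg]; exact h.2.2.1, by rw [hneg]; exact h.2.2.2⟩
  · intro a b u h h'; rw [hP] at h h'
    exact hinj a h.1 b h'.1 h.2.1 (h.2.2.2.trans h'.2.2.2.symm)
  · intro a u w h h'; rw [hP] at h h'
    exact proj_refl_inj hQ h36 (h.2.2.1 ▸ hv₀) (h'.2.2.1 ▸ hv₀) (h.2.2.2.symm.trans h'.2.2.2)
  · intro a ha b' hb' hab
    have haZ : a ∉ Subgroup.center L := fun h => hab (Subgroup.mem_center_iff.1 h b').symm
    obtain ⟨b, u, hbu, hab'⟩ : ∃ b u, P b u ∧ ¬ Commute a b := by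
      by_contra hne
      push Not at hne
      obtain ⟨g, -, hg⟩ := hval a
      refine haZ ((hΦ1 a).1 (hg.trans ((hpm g).2 (scalar_of_comm Q hQ hv₀ g fun v hv => ?_))))
      obtain ⟨b, hb⟩ := hall v hv
      have hc1 := hne b v hb
      rw [hP] at hb
      have h1 : Commute (proj g) (proj (H5.refl Q v)) := by
        rw [← hg, ← hb.2.2.2]; exact hc1.map Φ
      have h2 := commute_proj_refl hQ h36 (hv ▸ hv₀) h1
      show g * _ = _ * g
      rw [← mul_inv_eq_iff_eq_mul, H5.refl_conj]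
      rcases h2 with e | e
      · exact congrArg _ e
      · exact (congrArg _ e).trans (hneg v)
    rw [hP] at hbu
    obtain ⟨k, -, hk⟩ := hval (b * a)
    have hba : b * a * b * (b * a)⁻¹ = a := by
      rw [mul_inv_rev, H17.inv_self hY.1 ha, H17.inv_self hY.1 hbu.1]
      calc b * a * b * (a * b) = b * (a * b * a) * b := by simp only [mul_assoc]
        _ = b * (b * a * b) * b := by rw [H17.braid hY.1 ha hbu.1 hab']
        _ = (b * b) * a * (b * b) := by simp only [mul_assoc]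
        _ = a := by rw [H17.sq_one hY.1 hbu.1, one_mul, mul_one]
    refine ⟨ap k u, ?_⟩
    rw [hP]
    refine ⟨ha, haZ, ?_, ?_⟩
    · rw [ap, H5.orth_map]; exact hbu.2.2.1
    · conv_lhs => rw [← hba]
      rw [map_mul, map_mul, map_inv, hk, hbu.2.2.2, hconjr]
  · intro a b u w ha hb
    rw [hP] at ha hb
    constructor
    · intro hcom
      by_cases hp : polar Q u w = 0
      · exact Or.inl hp
      refine Or.inr (hinj a ha.1 b hb.1 ha.2.1 ?_)
      have h1 : Commute (proj (H5.refl Q u)) (proj (H5.refl Q w)) := by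
        rw [← ha.2.2.2, ← hb.2.2.2]; exact hcom.map Φ
      rw [ha.2.2.2, hb.2.2.2]
      rcases commute_proj_refl hQ h36 (hb.2.2.1 ▸ hv₀) h1 with e | e
      · exfalso
        rw [ap, H5.refl_apply, sub_eq_self] at e
        rcases smul_eq_zero.1 e with e | e
        · exact mul_ne_zero (inv_ne_zero (ha.2.2.1 ▸ hv₀)) hp e
        · exact hv₀ (ha.2.2.1.symm.trans (by rw [e, QuadraticMap.map_zero]))
      · rw [ap, H5.refl_apply, sub_eq_iff_eq_add] at e
        obtain ⟨r, hr⟩ : ∃ r, r = (Q u)⁻¹ * polar Q u w := ⟨_, rfl⟩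
        rw [← hr, eq_neg_add_iff_add_eq] at e
        have hr0 : r ≠ 0 := hr ▸ mul_ne_zero (inv_ne_zero (ha.2.2.1 ▸ hv₀)) hp
        rw [← H5.refl_smul hr0 u, ← e, ← two_smul K3 w, H5.refl_smul h20]
    · rintro (hp | rfl)
      · refine (H43.FischerTwins.mk_commute hY ha.1 hb.1).1 ?_
        refine (QuotientGroup.eq).2 ?_
        rw [← hΦ1, map_mul, map_inv, map_mul, map_mul, ha.2.2.2, hb.2.2.2,
          (show Commute (proj (H5.refl Q u)) (proj (H5.refl Q w)) from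
            (refl_commute hp).map (QuotientGroup.mk' (pmGroup Q))).eq, inv_mul_cancel]
      · exact Commute.refl a
  · intro a b u w ha hb
    rw [hP] at ha hb ⊢
    have hq : Q (ap (H5.refl Q u) w) = Q v₀ := by rw [ap, H5.orth_map]; exact hb.2.2.1
    have he : Φ (a * b * a) = proj (H5.refl Q (ap (H5.refl Q u) w)) := by
      rw [map_mul, map_mul, ha.2.2.2, hb.2.2.2, ap, ← H5.refl_conj, H5.refl_inv]
      rfl
    exact ⟨H17.third_mem hY.1 hY.2.1 ha.1 hb.1, hnc _ _ hq he, hq, he⟩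

end Cfsg.Agent.H25.M22O7
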