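import Cfsg.Agent.H25.M22O7.Words

/-!
A configuration satisfying the translation relation and the `E₇` relation generates the simple orthogonal group
`O₇(3)` in a group whose order is not divisible by `3 ^ 10`; the translation relation alone forces the
`E₇` relation when the central element would be a further member not commuting with the last generator.
-/

set_option autoImplicit false

namespace Cfsg.Agent.H25.M22O7

open Cfsg.Agent.H16 EnumData CoxEnum

/-- The number of cosets of a subgroup met by a certificate divides the number of its points. -/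
theorem index_dvd {S : Type*} [Group S] [Finite S] {D : EnumData} (hV : D.Valid) (s : Nat → S)
    (sq : ∀ g, s g * s g = 1) (rel : ∀ k, k < D.nrel → ev s (nthWord D.words k) = 1) (W : Subgroup S)
    (mem : ∀ k, ev s (nthWord D.words k) ∈ W) (hgen : Subgroup.closure (s '' {g | g < D.ng}) = ⊤) :
    W.index ∣ D.n := by
  classical
  haveI : Fintype (S ⧸ W) := Fintype.ofFinite _
  set x₀ : S ⧸ W := ((1 : S) : S ⧸ W) with hx₀
  have hfix : ∀ k, ev s (nthWord D.words k) • x₀ = x₀ := fun k => by
    rw [hx₀, MulAction.Quotient.smul_coe, smul_eq_mul, mul_one, QuotientGroup.eq, mul_one]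
    exact W.inv_mem (mem k)
  let c : Fin D.n → S ⧸ W := fun i => D.node s x₀ (D.repNode i)
  let fib : S ⧸ W → ℕ := fun p => (Finset.univ.filter fun i => c i = p).card
  have key : ∀ x : S, (∀ i, ∃ j, x • c i = c j) ∧ ∀ p, fib (x • p) = fib p := by
    intro x
    have hx : x ∈ Subgroup.closure (s '' {g | g < D.ng}) := hgen ▸ Subgroup.mem_top x
    have hgenstep : ∀ g, g < D.ng → (∀ i, ∃ j, s g • c i = c j) ∧ ∀ p, fib (s g • p) = fib p := by
      intro g hg
      let σ : Fin D.n ≃ Fin D.n :=
        { toFun := fun i => ⟨D.act i g, hV.act_lt i.2 hg⟩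
          invFun := fun i => ⟨D.act i g, hV.act_lt i.2 hg⟩
          left_inv := fun i => Fin.ext (hV.act_act i.2 hg)
          right_inv := fun i => Fin.ext (hV.act_act i.2 hg) }
      have hσ : ∀ i, s g • c i = c (σ i) := fun i => D.smul_rep s x₀ hV sq rel hfix i.2 hg
      refine ⟨fun i => ⟨σ i, hσ i⟩, fun p => ?_⟩
      simp only [fib]
      refine Finset.card_equiv σ fun i => ?_
      simp only [Finset.mem_filter, Finset.mem_univ, true_and]
      rw [← hσ]
      constructor
      · intro h; rw [h, smul_smul, sq, one_smul]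
      · intro h; rw [← h, smul_smul, sq, one_smul]
    induction hx using Subgroup.closure_induction'' with
    | one => exact ⟨fun i => ⟨i, one_smul _ _⟩, fun p => by rw [one_smul]⟩
    | mem y hy => obtain ⟨g, hg, rfl⟩ := hy; exact hgenstep g hg
    | inv_mem y hy =>
      obtain ⟨g, hg, rfl⟩ := hy
      rw [inv_eq_of_mul_eq_one_right (sq g)]
      exact hgenstep g hg
    | mul a b _ _ ha hb =>
      refine ⟨fun i => ?_, fun p => by rw [mul_smul, ha.2, hb.2]⟩
      obtain ⟨j, hj⟩ := hb.1 i
      obtain ⟨k, hk⟩ := ha.1 j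
      exact ⟨k, by rw [mul_smul, hj, hk]⟩
  have hconst : ∀ p, fib p = fib x₀ := fun p => by
    obtain ⟨x, rfl⟩ := QuotientGroup.mk_surjective p
    rw [← (key x).2 x₀, hx₀, MulAction.Quotient.smul_coe, smul_eq_mul, mul_one]
  have hsum : D.n = ∑ p : S ⧸ W, fib p := by
    have h := Finset.card_eq_sum_card_fiberwise (f := c) (s := (Finset.univ : Finset (Fin D.n)))
      (t := (Finset.univ : Finset (S ⧸ W))) fun _ _ => Finset.mem_coe.2 (Finset.mem_univ _)
    simpa [fib] using h
  rw [hsum, Finset.sum_congr rfl fun p _ => hconst p, Finset.sum_const, Finset.card_univ, smul_eq_mul,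
    Subgroup.index, Nat.card_eq_fintype_card]
  exact Dvd.intro _ rfl

theorem map_prodW {G H : Type*} [Group G] [Group H] (f : G →* H) (s : Nat → G) :
    f (thetaVal s) = thetaVal (f ∘ s) ∧ f (zVal s) = zVal (f ∘ s) := by
  simp [thetaVal, zVal, map_list_prod, List.map_map]

theorem ev_map {G H : Type*} [Group G] [Group H] (f : G →* H) (s : Nat → G) :
    ∀ w, f (ev s w) = ev (f ∘ s) w
  | [] => map_one f
  | g :: w => by simp [ev, ev_map f s w]

theorem map_letterSub {G H : Type*} [Group G] [Group H] (f : G →* H) (s : Nat → G) (L : List Nat) :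
    (letterSub s L).map f = letterSub (f ∘ s) L := by
  rw [letterSub, MonoidHom.map_closure, letterSub]
  congr 1
  ext x
  constructor
  · rintro ⟨_, ⟨g, hg, rfl⟩, rfl⟩; exact ⟨g, hg, rfl⟩
  · rintro ⟨g, hg, rfl⟩; exact ⟨_, ⟨g, hg, rfl⟩, rfl⟩

theorem val_out {g : Nat} (hg : 8 ≤ g) : O7U.val g = 1 := by
  rw [O7U.val, numGen, List.getElem?_eq_none (by simp [O7U.gens]; omega)]

/-- The configuration generates the simple orthogonal group. -/
theorem o7_of_config {G : Type*} [Group G] [Finite G] (h10 : ¬ 3 ^ 10 ∣ Nat.card G) (s : Nat → G)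
    (h : Pairs s 8) (hθ : (thetaVal s * s 7) ^ 3 = 1)
    (hz : zVal s = 1) (hne : ¬ Commute (s 0) (s 1)) :
    Nonempty (↥(letterSub s (List.range 8)) ≃* O7U.Grp) := by
  classical
  let t : Nat → G × O7U.Grp := fun g => (s g, O7U.val g)
  have hP := pairs_O7
  have hfs : MonoidHom.fst G O7U.Grp ∘ t = s := rfl
  have hsn : MonoidHom.snd G O7U.Grp ∘ t = O7U.val := rfl
  have ht : Pairs t 8 :=
    ⟨fun a => Prod.ext (h.sq a) (hP.sq a),
      fun a b ha hb hne hadj => Prod.ext (h.com a b ha hb hne hadj).eq (hP.com a b ha hb hne hadj).eq,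
      fun a b ha hb hadj => Prod.ext (h.braid a b ha hb hadj) (hP.braid a b ha hb hadj)⟩
  have hW : WordGroup (G × O7U.Grp) t tripleBase := by
    refine ht.triple (Prod.ext ?_ ?_) (Prod.ext ?_ ?_)
    · rw [Prod.pow_fst, Prod.fst_mul, Prod.fst_one]
      show (MonoidHom.fst G O7U.Grp (thetaVal t) * s 7) ^ 3 = 1
      rw [(map_prodW _ _).1, hfs, hθ]
    · rw [Prod.pow_snd, Prod.snd_mul, Prod.snd_one]
      show (MonoidHom.snd G O7U.Grp (thetaVal t) * O7U.val 7) ^ 3 = 1
      rw [(map_prodW _ _).1, hsn, thetaRel_O7]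
    · show MonoidHom.fst G O7U.Grp (zVal t) = 1
      rw [(map_prodW _ _).2, hfs, hz]
    · show MonoidHom.snd G O7U.Grp (zVal t) = 1
      rw [(map_prodW _ _).2, hsn, sevenRel_O7]
  obtain ⟨hS, hScard⟩ :=
    tower_step hW Triple.valid stepTriple (N := Nat.card (letterSub t (List.range 7))) ⟨inferInstance, le_rfl⟩
  have hWle : Nat.card (letterSub t (List.range 7)) ≤ 1451520 := by
    have h4 := tower_step hW Fi22T4.valid stepFour (letterSub_nil _)
    have h3 := tower_step hW Fi22T3.valid stepThree h4
    have h2 := tower_step hW Fi22T2.valid stepTwo h3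
    have h1 := tower_step hW Fi22T1.valid stepOne h2
    rw [seven_prod] at h1
    exact h1.2
  have hgrp : letterSub O7U.val (List.range 8) = ⊤ := letterSub_all O7U.presCheck
  have hseven : 1451520 ≤ Nat.card (letterSub O7U.val (List.range 7)) := by
    have hO := tower_step O7Order.wordGroupO7 O7U.valid O7Order.stepTop
      (N := Nat.card (letterSub O7U.val (List.range 7))) ⟨inferInstance, le_rfl⟩
    rw [hgrp, Subgroup.card_top, O7Iso.card_eq, show O7U.data.n = 3159 from rfl] at hO
    omega
  let S := letterSub t (List.range 8)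
  have hle : letterSub t (List.range 7) ≤ S := Subgroup.closure_mono fun x ⟨g, hg, e⟩ =>
    ⟨g, List.mem_range.2 (by have := List.mem_range.1 hg; omega), e⟩
  let W := (letterSub t (List.range 7)).subgroupOf S
  have hWcard : Nat.card W = 1451520 := by
    rw [Nat.card_congr (Subgroup.subgroupOfEquivOfLe hle).toEquiv]
    refine le_antisymm hWle (hseven.trans ?_)
    rw [← hsn, ← map_letterSub]
    exact Nat.le_of_dvd Nat.card_pos (Subgroup.card_map_dvd _ _)
  let π : S →* O7U.Grp := (MonoidHom.snd G O7U.Grp).comp S.subtype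
  let ψ : S →* G := (MonoidHom.fst G O7U.Grp).comp S.subtype
  have hπ : Function.Surjective π := by
    rw [← MonoidHom.range_eq_top, MonoidHom.range_comp, Subgroup.range_subtype, map_letterSub, hsn, hgrp]
  -- the cosets of the subgroup of type `E₇` divide 9477
  let t' : Nat → S := fun g => if hg : g < 8 then
    ⟨t g, Subgroup.subset_closure ⟨g, List.mem_range.2 hg, rfl⟩⟩ else 1
  have hcoe : ∀ g, g < 8 → (t' g : G × O7U.Grp) = t g := fun g hg => by simp [t', hg]
  have hdvd : W.index ∣ 9477 := by
    rw [← triple_n]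
    have hev : ∀ k, ((ev t' (nthWord Triple.weakData.words k) : ↥S) : G × O7U.Grp) =
        ev (numGen (List.range 8) t) (nthWord Triple.weakData.words k) := by
      intro k
      rw [← Subgroup.coe_subtype, ev_map]
      congr 1
      funext g
      by_cases hg : g < 8
      · simp [numGen, hg, hcoe g hg]
      · simp [numGen, t', hg]
    have hc := stepTriple
    simp only [checkStep, Bool.and_eq_true] at hc
    obtain ⟨⟨-, hrels⟩, hsub⟩ := hc
    have hV := Triple.valid
    have hng : Triple.weakData.ng = 8 := rfl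
    have hev' : ∀ k, ev (numGen (List.range 8) t) (nthWord Triple.weakData.words k) =
        ev t ((nthWord Triple.weakData.words k).map fun g => (List.range 8).getD g 0) := fun k =>
      ev_numGen_map t _ _ fun g hg => by
        have := hV.nthWord_lt k g hg
        simpa [hng] using this
    refine index_dvd hV t' (fun g => ?_) (fun k hk => Subtype.ext ?_) W (fun k => ?_) ?_
    · by_cases hg : g < 8
      · exact Subtype.ext (by rw [Subgroup.coe_mul, hcoe g hg]; exact ht.sq g)
      · simp [t', hg]
    · rw [hev, hev', Subgroup.coe_one]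
      exact ev_of_relOK t hW.sq hW.base_one (allFrom_spec hrels k (Nat.zero_le k) (by omega))
    · rw [Subgroup.mem_subgroupOf, hev, hev']
      by_cases hk : k < Triple.weakData.nrel
      · rw [ev_of_relOK t hW.sq hW.base_one (allFrom_spec hrels k (Nat.zero_le k) (by omega))]
        exact one_mem _
      by_cases hl : k < Triple.weakData.words.length
      · have h' := allFrom_spec hsub k (Nat.zero_le k) (by omega)
        simp only [Bool.or_eq_true, List.all_eq_true, List.contains_iff_mem] at h'
        rcases h' with h' | h'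
        · exact absurd (Nat.le_of_ble_eq_true h') (by omega)
        · exact ev_mem_letterSub t _ _ h'
      · rw [nthWord_eq_getD, List.getD_eq_default _ _ (by omega)]
        exact one_mem _
    · refine Subgroup.map_injective S.subtype_injective ?_
      rw [MonoidHom.map_closure, ← MonoidHom.range_eq_map, Subgroup.range_subtype]
      show Subgroup.closure (S.subtype '' (t' '' {g | g < Triple.weakData.ng})) = letterSub t (List.range 8)
      rw [letterSub, hng]
      refine congrArg Subgroup.closure (Set.ext fun x => ⟨?_, ?_⟩)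
      · rintro ⟨_, ⟨g, hg, rfl⟩, rfl⟩; exact ⟨g, List.mem_range.2 hg, (hcoe g hg).symm⟩
      · rintro ⟨g, hg, rfl⟩
        exact ⟨_, ⟨g, List.mem_range.1 hg, rfl⟩, hcoe g (List.mem_range.1 hg)⟩
  have hN : Nat.card π.ker ∣ 3 := by
    have h1 := Subgroup.index_mul_card W
    have h2 := Subgroup.index_mul_card π.ker
    rw [Subgroup.index_ker, MonoidHom.range_eq_top.2 hπ, Subgroup.card_top, O7Iso.card_eq] at h2
    rw [hWcard] at h1
    have h3 : W.index = 3159 * Nat.card π.ker := Nat.eq_of_mul_eq_mul_right (show 0 < 1451520 by norm_num) (by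
      rw [h1, ← h2]; ring)
    obtain ⟨r, hr⟩ := hdvd
    rw [h3] at hr
    exact ⟨r, Nat.eq_of_mul_eq_mul_left (show 0 < 3159 by norm_num) (by rw [← mul_assoc, ← hr])⟩
  have hN3 := (Nat.dvd_prime Nat.prime_three).1 hN
  -- the projection to the group is faithful
  haveI := O7Order.isSimple
  have hbot : π.ker ⊓ ψ.ker = ⊥ := by
    rw [eq_bot_iff]
    rintro x ⟨hx1, hx2⟩
    exact Subgroup.mem_bot.2 (Subtype.ext (Prod.ext (MonoidHom.mem_ker.1 hx2) (MonoidHom.mem_ker.1 hx1)))
  have hψ : Function.Injective ψ := by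
    rcases ((inferInstance : ψ.ker.Normal).map π hπ).eq_bot_or_eq_top with hb | htop
    · rw [← MonoidHom.ker_eq_bot_iff, eq_bot_iff, ← hbot]
      exact le_inf ((Subgroup.map_eq_bot_iff _).1 hb) le_rfl
    · exfalso
      let s0 : S := ⟨t 0, Subgroup.subset_closure ⟨0, by simp, rfl⟩⟩
      obtain ⟨m, hm, hmπ⟩ : ∃ m ∈ ψ.ker, π m = π s0 := by
        have : π s0 ∈ ψ.ker.map π := htop ▸ Subgroup.mem_top _
        exact this
      have hn : m⁻¹ * s0 ∈ π.ker := by rw [MonoidHom.mem_ker, map_mul, map_inv, hmπ, inv_mul_cancel]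
      have h3 : (m⁻¹ * s0) ^ 3 = 1 := by
        have hp : (⟨m⁻¹ * s0, hn⟩ : π.ker) ^ Nat.card π.ker = 1 := pow_card_eq_one'
        have hp' : (m⁻¹ * s0) ^ Nat.card π.ker = 1 := congrArg Subtype.val hp
        rcases hN3 with e | e
        · rw [e, pow_one] at hp'; rw [hp', one_pow]
        · rw [e] at hp'; exact hp'
      have h4 := congrArg ψ h3
      rw [map_pow, map_mul, map_inv, MonoidHom.mem_ker.1 hm, inv_one, one_mul, map_one,
        show ψ s0 = s 0 from rfl, pow_succ, pow_two, h.sq, one_mul] at h4
      exact hne (h4 ▸ Commute.one_left _)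
  have hψr : ψ.range = letterSub s (List.range 8) := by
    rw [MonoidHom.range_comp, Subgroup.range_subtype]
    show Subgroup.map _ (letterSub t (List.range 8)) = _
    rw [map_letterSub, hfs]
  have e : S ≃* ↥(letterSub s (List.range 8)) :=
    (MonoidHom.ofInjective hψ).trans (MulEquiv.subgroupCongr hψr)
  rcases hN3 with hone | hthree
  · have hπi : Function.Injective π := by
      rw [← MonoidHom.ker_eq_bot_iff]; exact Subgroup.card_eq_one.1 hone
    exact ⟨e.symm.trans (MulEquiv.ofBijective π ⟨hπi, hπ⟩)⟩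
  · refine absurd ?_ h10
    have h2 := Subgroup.index_mul_card π.ker
    rw [Subgroup.index_ker, MonoidHom.range_eq_top.2 hπ, Subgroup.card_top, O7Iso.card_eq, hthree] at h2
    calc 3 ^ 10 ∣ Nat.card S := ⟨4585351680 * 3 / 3 ^ 10, by rw [← h2]; norm_num⟩
      _ ∣ Nat.card G := by
        rw [Nat.card_congr e.toEquiv]
        exact Subgroup.card_subgroup_dvd_card _

/-- If the central element of `W(E₇)` is a member not commuting with the last generator, the configuration
collapses. -/
theorem commute_of_collapse {G : Type*} [Group G] [Finite G] (s : Nat → G) (h : Pairs s 9)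
    (hθ : (thetaVal s * s 7) ^ 3 = 1) (hz : zVal s = s 8) : Commute (s 7) (s 8) := by
  have hW := h.collapse hθ hz
  obtain ⟨hfin, hle⟩ := tower_step hW Collapse.valid stepCollapse
    (N := Nat.card (letterSub s [0, 1, 2, 3, 4, 5, 6, 8])) ⟨inferInstance, le_rfl⟩
  rw [collapse_n, one_mul] at hle
  have hsub : letterSub s [0, 1, 2, 3, 4, 5, 6, 8] ≤ letterSub s (List.range 9) :=
    Subgroup.closure_mono fun x ⟨g, hg, e⟩ => ⟨g, by fin_cases hg <;> simp, e⟩
  have heq := Subgroup.eq_of_le_of_card_ge hsub hle
  have h7 : s 7 ∈ letterSub s [0, 1, 2, 3, 4, 5, 6, 8] := heq ▸ Subgroup.subset_closure ⟨7, by simp, rfl⟩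
  have hc : letterSub s [0, 1, 2, 3, 4, 5, 6, 8] ≤ Subgroup.centralizer ({s 8} : Set G) := by
    rw [letterSub, Subgroup.closure_le]
    rintro _ ⟨g, hg, rfl⟩
    rw [SetLike.mem_coe, Subgroup.mem_centralizer_singleton_iff]
    fin_cases hg <;> first
      | rfl
      | exact (h.com _ 8 (by norm_num) (by norm_num) (by norm_num) (by decide)).eq
  exact Subgroup.mem_centralizer_singleton_iff.1 (hc h7)

end Cfsg.Agent.H25.M22O7
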