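import Cfsg.Agent.H16.O7Iso
import Cfsg.Agent.H17.Basic
import Cfsg.Agent.H25.M22O7.TripleCheck
import Cfsg.Agent.H25.M22O7.CollapseCheck

/-!
The relator words of the certificates and when a configuration of involutions satisfies them.
The letters `0..7` stand for `b, ..., i`; the letter `8` for one further involution.
-/

set_option autoImplicit false

namespace Cfsg.Agent.H25.M22O7

open Cfsg.Agent.H16 EnumData CoxEnum

/-- The edges `b-c, c-d, d-e, d-h, e-f, f-g, h-i` and the further edge from `i`. -/
def adjW (a b : Nat) : Bool :=
  [(0, 1), (1, 2), (2, 3), (2, 6), (3, 4), (4, 5), (6, 7), (7, 8)].any fun p =>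
    p == (a, b) || p == (b, a)

theorem adjW_comm (a b : Nat) : adjW b a = adjW a b := by
  simp [adjW, Bool.or_comm]

theorem adjW_self (a : Nat) : adjW a a = false := by
  simp [adjW]; omega

/-- The letters of the highest root of `E₆` as a conjugate of `b`. -/
def thetaW : List Nat := [6, 2, 3, 1, 2, 6, 4, 3, 2, 1, 0, 1, 2, 3, 4, 6, 2, 1, 3, 2, 6]

/-- The translation word. -/
def thetaRel : List Nat := (List.replicate 3 (thetaW ++ [7]).reverse).flatten

/-- The Coxeter element of `E₇`. -/
def coxSevenW : List Nat := [0, 1, 2, 3, 4, 5, 6]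

/-- The word of the central element of `W(E₇)`. -/
def zRel : List Nat := (List.replicate 9 coxSevenW.reverse).flatten

/-- A word which is a Coxeter relator below `n`. -/
def pairOK (n : Nat) (w : List Nat) : Bool :=
  w.isEmpty || (List.range n).any fun a => (List.range n).any fun b =>
    (a == b && w == [a, a]) || (!(a == b) && w == (List.replicate (if adjW a b then 3 else 2) [a, b]).flatten)

/-- The base words of the bound on the triple cover. -/
abbrev tripleBase : List (List Nat) := Triple.data.words.take Triple.data.nbase

/-- The base words of the collapse. -/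
abbrev collapseBase : List (List Nat) := Collapse.data.words.take Collapse.data.nbase

theorem tripleBase_ok : (tripleBase.all fun w => pairOK 8 w || w == thetaRel || w == zRel) = true := by
  decide +kernel

theorem collapseBase_ok :
    (collapseBase.all fun w => pairOK 9 w || w == thetaRel || w == 8 :: zRel) = true := by
  decide +kernel

theorem stepTriple : checkStep Triple.weakData tripleBase (List.range 8) (List.range 7) = true := by
  decide +kernel

theorem stepOne : checkStep Fi22T1.weakData tripleBase [0, 1, 2, 3, 4, 5, 6] [0, 1, 2, 3, 4, 6] = true := by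
  decide +kernel

theorem stepTwo : checkStep Fi22T2.weakData tripleBase [0, 1, 2, 3, 4, 6] [1, 2, 3, 4, 6] = true := by
  decide +kernel

theorem stepThree : checkStep Fi22T3.weakData tripleBase [1, 2, 3, 4, 6] [1, 2, 3, 4] = true := by
  decide +kernel

theorem stepFour : checkStep Fi22T4.weakData tripleBase [1, 2, 3, 4] [] = true := by decide +kernel

theorem stepCollapse :
    checkStep Collapse.weakData collapseBase (List.range 9) [0, 1, 2, 3, 4, 5, 6, 8] = true := by
  decide +kernel

theorem collapse_n : Collapse.weakData.n = 1 := by decide +kernel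

theorem triple_n : Triple.weakData.n = 9477 := by decide +kernel

theorem seven_prod : Fi22T1.weakData.n * (Fi22T2.weakData.n *
    (Fi22T3.weakData.n * (Fi22T4.weakData.n * 1))) = 1451520 := by decide +kernel

variable {G : Type*} [Group G]

theorem ev_reverse_prod (s : Nat → G) : ∀ w : List Nat, ev s w.reverse = (w.map s).prod
  | [] => rfl
  | g :: w => by
    rw [List.reverse_cons, ev_append, ev_reverse_prod s w]
    simp [ev]

theorem ev_replicate (s : Nat → G) (u : List Nat) : ∀ n : ℕ,
    ev s (List.replicate n u).flatten = ev s u ^ n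
  | 0 => by simp [ev]
  | n + 1 => by
    rw [List.replicate_succ, List.flatten_cons, ev_append, ev_replicate s u n, pow_succ]

/-- The value of the root word. -/
def thetaVal (s : Nat → G) : G := (thetaW.map s).prod

theorem ev_thetaRel (s : Nat → G) : ev s thetaRel = (thetaVal s * s 7) ^ 3 := by
  rw [thetaRel, ev_replicate, ev_reverse_prod, List.map_append, List.prod_append, thetaVal]
  simp

/-- The value of the central word. -/
def zVal (s : Nat → G) : G := (coxSevenW.map s).prod ^ 9

theorem ev_zRel (s : Nat → G) : ev s zRel = zVal s := by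
  rw [zRel, ev_replicate, ev_reverse_prod, zVal]

/-- The Coxeter conditions below `n`. -/
structure Pairs (s : Nat → G) (n : Nat) : Prop where
  sq : ∀ a, s a * s a = 1
  com : ∀ a b, a < n → b < n → a ≠ b → adjW a b = false → Commute (s a) (s b)
  braid : ∀ a b, a < n → b < n → adjW a b = true → (s a * s b) ^ 3 = 1

theorem Pairs.ev_one {s : Nat → G} {n : Nat} (h : Pairs s n) {w : List Nat} (hw : pairOK n w = true) :
    ev s w = 1 := by
  simp only [pairOK, Bool.or_eq_true, List.isEmpty_iff, List.any_eq_true, List.mem_range,
    Bool.and_eq_true, beq_iff_eq, Bool.not_eq_true'] at hw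
  rcases hw with rfl | ⟨a, ha, b, hb, ⟨rfl, rfl⟩ | ⟨hab, rfl⟩⟩
  · rfl
  · simp [ev, h.sq]
  · rw [ev_replicate]
    have hne : a ≠ b := by simpa using hab
    have e : ev s [a, b] = (s a * s b)⁻¹ := by
      rw [mul_inv_rev, inv_eq_of_mul_eq_one_right (h.sq a), inv_eq_of_mul_eq_one_right (h.sq b)]
      simp [ev]
    rw [e, inv_pow, inv_eq_one]
    cases hadj : adjW a b with
    | true => simpa using h.braid a b ha hb hadj
    | false =>
      rw [if_neg (by simp), (h.com a b ha hb hne hadj).mul_pow, pow_two, pow_two, h.sq, h.sq, one_mul]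

theorem Pairs.triple {s : Nat → G} (h : Pairs s 8) (hθ : (thetaVal s * s 7) ^ 3 = 1) (hz : zVal s = 1) :
    WordGroup G s tripleBase where
  sq := h.sq
  base_one w hw := by
    have := List.all_eq_true.mp tripleBase_ok w hw
    simp only [Bool.or_eq_true, beq_iff_eq] at this
    rcases this with (h' | rfl) | rfl
    · exact h.ev_one h'
    · rw [ev_thetaRel, hθ]
    · rw [ev_zRel, hz]

theorem Pairs.collapse {s : Nat → G} (h : Pairs s 9) (hθ : (thetaVal s * s 7) ^ 3 = 1)
    (hz : zVal s = s 8) : WordGroup G s collapseBase where
  sq := h.sq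
  base_one w hw := by
    have := List.all_eq_true.mp collapseBase_ok w hw
    simp only [Bool.or_eq_true, beq_iff_eq] at this
    rcases this with (h' | rfl) | rfl
    · exact h.ev_one h'
    · rw [ev_thetaRel, hθ]
    · rw [ev, ev_zRel, hz, h.sq]

/-- The word for the translation dies in the simple orthogonal group. -/
theorem thetaRel_O7 : (thetaVal O7U.val * O7U.val 7) ^ 3 = 1 := by
  have hlt : ∀ g ∈ (thetaW ++ [7]).reverse, g < O7U.data.ng := by decide +kernel
  have hfix : allFrom (fun i => Nat.beq
      (O7U.data.run (List.replicate 3 (thetaW ++ [7]).reverse).flatten i) i) O7U.data.n 0 = true := by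
    decide +kernel
  have h := O7U.theModel.pow_eq_one O7Order.card_and_faithful.2 _ hlt 3 hfix
  rw [ev_reverse_prod, List.map_append, List.prod_append] at h
  simpa [thetaVal] using h

theorem sevenRel_O7 : zVal O7U.val = 1 := by
  rw [← ev_zRel]
  refine ev_of_relOK _ O7Order.wordGroupO7.sq O7Order.wordGroupO7.base_one ?_
  decide +kernel

theorem pairs_O7 : Pairs O7U.val 8 := by
  have hW := O7Order.wordGroupO7
  have key : ∀ a, a < 8 → ∀ b, b < 8 → a ≠ b →
      relOK O7Order.baseWords (List.replicate (if adjW a b then 3 else 2) [a, b]).flatten = true := by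
    decide +kernel
  have hp : ∀ a b, a < 8 → b < 8 → a ≠ b → (O7U.val b * O7U.val a) ^ (if adjW a b then 3 else 2) = 1 := by
    intro a b ha hb hne
    have := ev_of_relOK _ hW.sq hW.base_one (key a ha b hb hne)
    rwa [ev_replicate, show ev O7U.val [a, b] = O7U.val b * O7U.val a by simp [ev]] at this
  refine ⟨hW.sq, fun a b ha hb hne hadj => ?_, fun a b ha hb hadj => ?_⟩
  · have := hp b a hb ha hne.symm
    rw [if_neg (by simp [adjW_comm a b, hadj])] at this
    exact (H17.commute_iff_sq (hW.sq a) (hW.sq b)).2 this
  · have hne : a ≠ b := fun e => by subst e; rw [adjW_self] at hadj; exact absurd hadj (by simp)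
    have := hp b a hb ha hne.symm
    rwa [if_pos (by rw [adjW_comm a b, hadj])] at this

end Cfsg.Agent.H25.M22O7
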